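import Cfsg.Agent.H6.Monomial
import Cfsg.Agent.H1.Fitting
/-! Berger's theorem: quasi-primitive characters of solvable groups are primitive (`berger`, via `not_homog`). -/
set_option autoImplicit false
open H5 Cfsg Subgroup
open scoped ComplexConjugate commutatorElement
namespace H6

variable {G : Type*} [Group G]

theorem chief_above [Finite G] (L : Subgroup G) [L.Normal] (hs : Group.IsSolvable (G ⧸ L)) (h : L ≠ ⊤) :
    ∃ (K : Subgroup G) (_ : K.Normal) (p k : ℕ), L < K ∧ p.Prime ∧ L.relIndex K = p ^ k ∧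
      ∀ (M : Subgroup G) [M.Normal] (j : ℕ), L.relIndex M = p ^ j → ⁅K, M⁆ ≤ L := by
  have : Nontrivial (G ⧸ L) := QuotientGroup.nontrivial_iff.2 h
  obtain ⟨N, hN, h1, -, h2⟩ := H1.exists_minimal_normal_le (⊤ : Subgroup (G ⧸ L)) top_ne_bot
  obtain ⟨-, p, hp, h3⟩ := H1.minimal_normal_elementary N h1 h2
  have := Fact.mk hp
  obtain ⟨k, hk⟩ := IsPGroup.iff_card.1 (show IsPGroup p N from fun x => ⟨1, Subtype.ext (by simpa using h3 x x.2)⟩)
  have e : ∀ M : Subgroup G, L.relIndex M = Nat.card (M.map (QuotientGroup.mk' L)) := fun M => by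
    rw [← relIndex_bot_left, ← relIndex_comap, MonoidHom.comap_bot, QuotientGroup.ker_mk']
  have m := map_comap_eq_self_of_surjective (QuotientGroup.mk'_surjective L) N
  refine ⟨N.comap (QuotientGroup.mk' L), inferInstance, p, k, lt_of_le_of_ne (QuotientGroup.le_comap_mk' L N)
    fun a => h1 (by rw [← m, ← a, H1.map_mk'_eq_bot_iff]), hp, by rw [e, m, hk], fun M hM j hj => ?_⟩
  have := hM.map _ (QuotientGroup.mk'_surjective L)
  have := (IsPGroup.of_card (e M ▸ hj)).isNilpotent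
  rw [← H1.map_mk'_eq_bot_iff, map_commutator, m, H1.minimal_normal_commutator_eq_bot h2]

theorem not_homog [Fintype G] (L H : Subgroup G) [L.Normal] (hLH : L ≤ H) (hmax : IsCoatom H)
    (hsolv : Group.IsSolvable (G ⧸ L)) (ϑ : H → ℂ) (hϑ : IsIrrCharacter H ϑ)
    (hϑL : IsIrrCharacter L (fun x : L => ϑ ⟨(x : G), hLH x.2⟩)) (hind : IsIrrCharacter G (indFun H ϑ)) :
    ∃ M : Subgroup G, M.Normal ∧ L ≤ M ∧ ¬ ∃ (φ : M → ℂ) (e : ℕ), IsIrrCharacter M φ ∧
      (fun m : M => indFun H ϑ m) = (e : ℂ) • φ := by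
  classical
  by_contra hom
  push Not at hom
  have sol : ∀ (M : Subgroup G) [M.Normal], L ≤ M → Group.IsSolvable (G ⧸ M) := fun M _ h =>
    Group.isSolvable_of_surjective (f := QuotientGroup.map L M (MonoidHom.id G) h)
      fun y => by obtain ⟨y, rfl⟩ := QuotientGroup.mk_surjective y; exact ⟨y, rfl⟩
  set C := H.normalCore
  set χ := indFun H ϑ with hχ
  have LC : L ≤ C := normal_le_normalCore.2 hLH
  have CH : C ≤ H := H.normalCore_le
  obtain ⟨K, _, p, k, CK, hp, hk, hK⟩ := chief_above C (sol C LC) fun e => hmax.1 (top_le_iff.1 (e ▸ CH))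
  have KH : ∀ g : G, ∃ h ∈ H, ∃ k ∈ K, g = h * k := fun g => by
    obtain ⟨a, ha, b, hb, e⟩ := mem_sup_of_normal_right.1 ((hmax.2 (H ⊔ K) (left_lt_sup.2 fun e =>
      CK.not_ge (normal_le_normalCore.2 e))).ge (mem_top g))
    exact ⟨a, ha, b, hb, e.symm⟩
  have key : ∀ (M : Subgroup G) [M.Normal], C ≤ M → ⁅K, M⁆ ≤ C → ∀ x ∈ M, x ∈ H → x ∈ C := fun M hM h1 h2 x xM xH g => by
    obtain ⟨a, ha, b, hb, rfl⟩ := KH g
    have := mul_mem (mul_mem ha (mul_mem (CH (h2 (commutator_mem_commutator hb xM))) xH)) (inv_mem ha)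
    simpa [commutatorElement_def, mul_assoc] using this
  have KC := key K CK.le (hK K k hk)
  have ix : ∀ M : Subgroup G, K ≤ M → (H.subgroupOf M).index = p ^ k := fun M h => by
    have a := ind_one H (fun _ => 1)
    have b := congrFun (res_ind_of_mul_eq H M (fun g => (KH g).imp fun _ a => ⟨a.1, a.2.imp fun _ b => ⟨h b.1, b.2⟩⟩)
      (isClassFunction_const 1)) 1
    have c := congrFun (res_ind_of_mul_eq H K KH (isClassFunction_const 1)) 1
    simp only [OneMemClass.coe_one, ind_one, mul_one, Nat.cast_inj] at b c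
    rw [← b, c, ← hk, relIndex]
    exact congrArg _ (Subgroup.ext fun x => ⟨KC x x.2, fun a => CH a⟩)
  have irr : ∀ M : Subgroup G, C ≤ M → IsIrrCharacter _ (sOf ϑ M) := fun M h => irr_of_comp_irr
    ((L.subtype.codRestrict M fun x => h (LC x.2)).codRestrict (H.subgroupOf M) fun x => hLH x.2)
    (isCharacter_sOf hϑ.isCharacter M) hϑL
  have st : ∀ (M : Subgroup G), K ≤ M → ∀ (ξ : M → ℂ) (f : ℕ), IsIrrCharacter M ξ → (fun m : M => χ m) = (f : ℂ) • ξ →
      classInner (fun x : H.subgroupOf M => ξ x) (sOf ϑ M) = f ∧ f * ξ 1 = p ^ k * ϑ 1 := fun M h ξ f hξ e => by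
    have b := res_ind_of_mul_eq H M (fun g => (KH g).imp fun _ a => ⟨a.1, a.2.imp fun _ b => ⟨h b.1, b.2⟩⟩)
      hϑ.isClassFunction
    refine ⟨?_, ?_⟩
    · rw [← inner_ind_right _ _ hξ.isClassFunction, ← b, e, classInner_smul_right, hξ.classInner_self]; simp
    · have := congrFun (e.symm.trans b) 1
      rw [ind_one, ix M h, Nat.cast_pow] at this
      exact this
  have n0 : ((p : ℂ) ^ k) ≠ 0 := pow_ne_zero _ (Nat.cast_ne_zero.2 hp.ne_zero)
  obtain ⟨ψ, e, hψ, he⟩ := hom K inferInstance (LC.trans CK.le)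
  obtain ⟨e1, e2⟩ := st K le_rfl ψ e hψ he
  have e0 : (e : ℂ) ≠ 0 := left_ne_zero_of_mul (e2.trans_ne (mul_ne_zero n0 hϑ.apply_one_ne_zero))
  have e3 : e * e = p ^ k := by
    obtain ⟨φ, a, hφ, ha⟩ := hom C inferInstance LC
    let j : H.subgroupOf K ≃* C := MulEquiv.ofBijective ((K.subtype.comp (H.subgroupOf K).subtype).codRestrict C
      fun x => KC _ x.1.2 x.2) ⟨fun x y h => Subtype.ext (Subtype.ext (congrArg Subtype.val h :)),
        fun x => ⟨⟨⟨x, CK.le x.2⟩, CH x.2⟩, rfl⟩⟩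
    have b : (e : ℂ) • (fun x : H.subgroupOf K => ψ x) = (a : ℂ) • fun x => φ (j x) := funext fun x =>
      (congrFun he x).symm.trans (congrFun ha (j x))
    have c := congrArg (classInner · (sOf ϑ K)) b
    simp only [classInner_smul_left, e1] at c
    have d := (hφ.comp_equiv j).eq_of_classInner_ne_zero (irr K CK.le) (right_ne_zero_of_mul (c ▸ mul_ne_zero e0 e0))
    rw [d, (irr K CK.le).classInner_self, mul_one] at c
    have := (congrFun (d ▸ b) 1).symm.trans e2
    exact_mod_cast c.trans (mul_right_cancel₀ hϑ.apply_one_ne_zero this)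
  by_cases KT : K = ⊤
  · subst KT
    have := (hind.comp_equiv topEquiv).classInner_self
    erw [he, classInner_smul_left, classInner_smul_right, hψ.classInner_self] at this
    rw [← e3, show e * e = 1 by simpa [← Nat.cast_mul] using this, relIndex_eq_one] at hk
    exact CK.not_ge hk
  obtain ⟨M, _, q, j, KM, hq, hj, -⟩ := chief_above K (sol K (LC.trans CK.le)) KT
  have r := relIndex_mul_relIndex C K M CK.le KM.le
  have pq : p ≠ q := by
    rintro rfl
    refine KM.not_ge fun x hx => ?_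
    obtain ⟨a, ha, b, hb, rfl⟩ := KH x
    exact mul_mem (CK.le (key M (CK.trans KM).le (hK M (k + j) (by rw [← r, hk, hj, pow_add])) a
      ((mul_mem_cancel_right (KM.le hb)).1 hx) ha)) hb
  obtain ⟨ξ, f, hξ, hf⟩ := hom M inferInstance ((LC.trans CK.le).trans KM.le)
  obtain ⟨f1, f2⟩ := st M KM.le ξ f hξ hf
  have f0 : (f : ℂ) ≠ 0 := left_ne_zero_of_mul (f2.trans_ne (mul_ne_zero n0 hϑ.apply_one_ne_zero))
  obtain rfl : e = f := by
    have a : (f : ℂ) • (fun x : K.subgroupOf M => ξ x) = (e : ℂ) • sOf ψ M := funext fun x =>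
      (congrFun hf x).symm.trans (congrFun he ⟨x, x.2⟩)
    obtain ⟨b, hb⟩ := (hξ.isCharacter.restrict (K.subgroupOf M)).exists_classInner_nat (isIrr_sOf KM.le hψ).isCharacter
    have c := congrArg (classInner · (sOf ψ M)) a
    simp only [classInner_smul_left, hb, (isIrr_sOf KM.le hψ).classInner_self, mul_one] at c
    have d := multiplicity_dvd (isIrr_sOf KM.le hψ) hξ (e := b) (smul_right_injective _ f0 (by
      simp only [a, ← c, mul_smul]))
    have c : f * b = e := by exact_mod_cast c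
    rw [← c, Nat.eq_one_of_dvd_coprimes (k := b) (((Nat.coprime_primes hp hq).2 pq).pow k j)
      (e3 ▸ (Dvd.intro_left f c).mul_right e) (hj ▸ d), mul_one]
  have e3' : (e : ℂ) * e = p ^ k := by exact_mod_cast e3
  have g1 : (fun x : H.subgroupOf M => ξ x) = (e : ℂ) • sOf ϑ M := sub_eq_zero.1
    ((f1 ▸ isCharacter_sub_smul (hξ.isCharacter.restrict _) (irr M (CK.trans KM).le)).eq_zero_of_apply_one (by
      refine sub_eq_zero.2 (mul_left_cancel₀ e0 (f2.trans ?_))
      rw [← e3', mul_assoc]; rfl))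
  have g2 := (inner_res_eq_index_iff (H.subgroupOf M) ξ).1 (by
    rw [g1, classInner_smul_left, classInner_smul_right, (irr M (CK.trans KM).le).classInner_self, hξ.classInner_self, ix M KM.le]
    simpa using e3')
  have g3 := (inner_res_eq_index_iff (C.subgroupOf M) ξ).2 fun x hx => by
    obtain ⟨g, hg⟩ : ∃ g : G, g * x * g⁻¹ ∉ H := not_forall.1 hx
    have := congrFun hf ⟨_, ‹M.Normal›.conj_mem _ x.2 g⟩
    rw [Pi.smul_apply, g2 _ hg, smul_zero, hind.isClassFunction.eq_of_isConj (isConj_iff.2 ⟨g, rfl⟩).symm] at this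
    exact (mul_eq_zero.1 ((congrFun hf x).symm.trans this)).resolve_left e0
  have i2 : IsIrrCharacter (C.subgroupOf M) fun x => ϑ ⟨x, CH x.2⟩ := irr_of_comp_irr
    ((L.subtype.codRestrict M fun x => (CK.trans KM).le (LC x.2)).codRestrict (C.subgroupOf M) fun x => LC x.2)
    (hϑ.isCharacter.comp ((M.subtype.comp (C.subgroupOf M).subtype).codRestrict H fun x => CH x.2)) hϑL
  rw [show (fun x : C.subgroupOf M => ξ x) = (e : ℂ) • fun x : C.subgroupOf M => ϑ ⟨x, CH x.2⟩ from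
    funext fun x => congrFun g1 ⟨x, CH x.2⟩, classInner_smul_left, classInner_smul_right, i2.classInner_self,
    hξ.classInner_self, map_natCast, mul_one, mul_one, e3', ← relIndex, ← r, hk] at g3
  exact KM.not_ge (relIndex_eq_one.1 (Nat.cast_injective (R := ℂ) (by simpa [hp.ne_zero] using g3)))

theorem irr_of_mul_irr [Finite G] {α β : G → ℂ} (hα : IsCharacter G α) (hβ : IsCharacter G β)
    (h : IsIrrCharacter G (α * β)) : IsIrrCharacter G α := by
  have := Fintype.ofFinite G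
  have b0 : β 1 ≠ 0 := right_ne_zero_of_mul h.apply_one_ne_zero
  obtain ⟨φ, h1, h2⟩ := hα.exists_irr_constituent (by rintro rfl; exact h.ne_zero (zero_mul β))
  have c1 := h1.isCharacter.mul hβ
  have c2 := (hα.sub_irr h1 h2).mul hβ
  obtain ⟨a, ha⟩ := c1.exists_classInner_nat c1
  obtain ⟨b, hb⟩ := c1.exists_classInner_nat c2
  obtain ⟨c, hc⟩ := c2.exists_classInner_nat c2
  have := h.classInner_self
  rw [show α * β = φ * β + (α - φ) * β by ring, classInner_add_left, classInner_add_right, classInner_add_right,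
    c2.classInner_comm c1, ha, hb, hc] at this
  have : a + b + (b + c) = 1 := by exact_mod_cast this
  have : a ≠ 0 := fun k => mul_ne_zero h1.apply_one_ne_zero b0 
    (congrFun ((classInner_self_eq_zero (φ * β)).1 (by simp [ha, k])) 1)
  have := congrFun ((classInner_self_eq_zero _).1 (hc.trans (by rw [show c = 0 by omega, Nat.cast_zero]))) 1
  rwa [sub_eq_zero.1 ((hα.sub_irr h1 h2).eq_zero_of_apply_one ((mul_eq_zero.1 this).resolve_right b0))]

theorem berger [Fintype G] [Group.IsSolvable G] {χ : G → ℂ} (hχ : IsIrrCharacter G χ) (hqp : QP χ) (T : Subgroup G)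
    (hT : T ≠ ⊤) {ψ : T → ℂ} (hψ : IsCharacter T ψ) : indFun T ψ ≠ χ := by
  classical
  intro e
  obtain ⟨L, ⟨hL, T, LT, hT, ψ, hψ, e⟩, max⟩ := (wellFounded_gt (α := Subgroup G)).has_min
    {L | L.Normal ∧ ∃ T, L ≤ T ∧ T ≠ ⊤ ∧ ∃ ψ : T → ℂ, IsCharacter T ψ ∧ indFun T ψ = χ}
    ⟨⊥, inferInstance, T, bot_le, hT, ψ, hψ, e⟩
  obtain ⟨H, hH, TH⟩ := (eq_top_or_exists_le_coatom T).resolve_left hT
  have LH := LT.trans TH
  obtain ⟨ϑ, hϑ, rfl⟩ : ∃ ϑ : H → ℂ, IsCharacter H ϑ ∧ indFun H ϑ = χ :=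
    ⟨_, isCharacter_ind _ (isCharacter_sOf hψ H), (ind_trans T H TH ψ).trans e⟩
  replace hϑ := irr_of_ind_irr H hϑ hχ
  have mx : ∀ M : Subgroup G, M.Normal → L ≤ M → M ≤ H → M ≤ L := fun M hM a b =>
    (eq_of_le_of_not_lt a fun c => max M ⟨hM, H, b, hH.1, ϑ, hϑ.isCharacter, rfl⟩ c).ge
  obtain ⟨K, _, p, k, LK, -, hk, hK⟩ := chief_above L inferInstance fun e => hH.1 (top_le_iff.1 (e ▸ LH))
  have KH : ∀ g : G, ∃ h ∈ H, ∃ k ∈ K, g = h * k := fun g => by
    obtain ⟨a, ha, b, hb, e⟩ := mem_sup_of_normal_right.1 ((hH.2 (H ⊔ K) (left_lt_sup.2 fun e =>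
      LK.not_ge (mx K inferInstance LK.le e))).ge (mem_top g))
    exact ⟨a, ha, b, hb, e.symm⟩
  have KL : ∀ x ∈ K, x ∈ H → x ∈ L := fun x xK xH => mx _ inferInstance (normal_le_normalCore.2 LH) H.normalCore_le fun g => by
    obtain ⟨a, ha, b, hb, rfl⟩ := KH g
    have := mul_mem (mul_mem ha (mul_mem (LH (hK K k hk (commutator_mem_commutator hb xK))) xH)) (inv_mem ha)
    simpa [commutatorElement_def, mul_assoc] using this
  obtain ⟨φ, a, hφ, ha⟩ := hqp L hL
  have a0 : (a : ℂ) ≠ 0 := fun z => hχ.apply_one_ne_zero (by simpa [z] using congrFun ha 1)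
  have iφ := invariant_of_res_eq_smul hχ.isClassFunction a0 ha
  have iφ' : ∀ h : H, cj (sOf φ H) h = sOf φ H := fun h => by rw [cj_sOf, iφ]
  obtain ⟨R⟩ := exists_repGroup (isIrr_sOf LH hφ) iφ'
  obtain ⟨β, hβ, b1, -, b2⟩ := R.exists_beta (isIrr_sOf LH hφ) hϑ (by
    obtain ⟨θ, h1, h2⟩ := exists_irr_under (N := L.subgroupOf H) hϑ
    have := inner_comp_ne_zero_of_constituent (L.subgroupOf H).subtype (hχ.isCharacter.restrict H) hϑ (by
      rw [← inner_ind_right _ _ hχ.isClassFunction, hχ.classInner_self]; simp) h1.isCharacter h2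
    erw [show (fun x : L.subgroupOf H => indFun H ϑ x) = (a : ℂ) • sOf φ H from funext fun x => congrFun ha ⟨x, x.2⟩,
      classInner_smul_left] at this
    rwa [(isIrr_sOf LH hφ).eq_of_classInner_ne_zero h1 (right_ne_zero_of_mul this)])
  let Γ := ((QuotientGroup.mk' K).comp (MonoidHom.fst G R.Γ)).eqLocus
    ((QuotientGroup.mk' K).comp (H.subtype.comp (R.π.comp (MonoidHom.snd G R.Γ))))
  have mΓ : ∀ {x : G × R.Γ}, x ∈ Γ ↔ x.1 * (R.π x.2 : G)⁻¹ ∈ K := by
    intro x; rw [← div_eq_mul_inv, ← QuotientGroup.eq_iff_div_mem]; rfl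
  let π : Γ →* G := (MonoidHom.fst G R.Γ).comp Γ.subtype
  let σ : Γ →* R.Γ := (MonoidHom.snd G R.Γ).comp Γ.subtype
  have hπ : Function.Surjective π := fun g => by
    obtain ⟨a, ha, b, hb, rfl⟩ := KH g
    obtain ⟨γ, hγ⟩ := R.surj ⟨a, ha⟩
    exact ⟨⟨(a * b, γ), mΓ.2 (by simpa [hγ] using ‹K.Normal›.conj_mem b hb a)⟩, rfl⟩
  let l : H.comap π → L.subgroupOf H := fun x => ⟨⟨π x, x.2⟩ * (R.π (σ x))⁻¹,
    KL _ (mΓ.1 x.1.2) (H.mul_mem (x := π x) x.2 (H.inv_mem (R.π (σ x)).2))⟩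
  let j : H.comap π →* R.Γ := MonoidHom.mk' (fun x => R.s (l x) * σ x) fun x y => by
    have := R.conj_s (σ x) (l y)
    rw [Subgroup.coe_mul, map_mul, mul_assoc, ← mul_assoc (σ x), mul_inv_eq_iff_eq_mul.1 this, ← mul_assoc, ← mul_assoc,
      ← mul_assoc, ← map_mul]
    congr 3
    ext; simp [l, mul_assoc]
  have j1 : ∀ x, R.π (j x) = ⟨π x, x.2⟩ := fun x => by simp [j, R.π_s, l]
  have j2 : Function.Surjective j := fun γ => ⟨⟨⟨(R.π γ, γ), mΓ.2 (by simp)⟩, (R.π γ).2⟩, by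
    change R.s _ * γ = γ
    rw [mul_eq_right, ← map_one R.s]; congr 1; ext; simp [l, π, σ]⟩
  have t := R.irr.comp_surjective j j2
  have c := hβ.isCharacter.comp σ
  have e1 : indFun (H.comap π) (fun x => R.τ (j x)) * (fun x => β (σ x)) = fun x => indFun H ϑ (π x) := by
    rw [← ind_mul_res _ _ c.isClassFunction, ← ind_comap π hπ]
    congr 1
    funext x
    rw [← j1, b2, mul_comm]
    exact congrArg (· * _) (b1 ⟨l x, rfl⟩ _).symm
  have x1 := hχ.comp_surjective π hπ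
  have t1 := irr_of_mul_irr (isCharacter_ind _ t.isCharacter) c (e1 ▸ x1)
  have m1 : ∀ y : L.comap π, σ y ∈ (L.subgroupOf H).comap R.π := fun y => by
    simpa [l] using mul_mem (inv_mem (l ⟨y, LH y.2⟩).2) (show (⟨π y, LH y.2⟩ : H) ∈ L.subgroupOf H from y.2)
  have m2 : ∀ y : L.comap π, R.τ (j ⟨y, LH y.2⟩) = R.mu ⟨σ y, m1 y⟩ * φ ⟨π y, y.2⟩ := fun y => by
    have := R.τ_eq (⟨R.s (l ⟨y, LH y.2⟩), R.N₀_le_comap ⟨_, rfl⟩⟩ * ⟨σ y, m1 y⟩)
    rw [map_mul, R.mu_s, one_mul] at this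
    exact this.trans (congrArg (_ * φ ·) (Subtype.ext (congrArg Subtype.val (j1 ⟨y, LH y.2⟩) :)))
  have t2 : IsIrrCharacter (L.comap π) fun y => R.τ (j ⟨y, LH y.2⟩) := irr_of_comp_irr
    ((((MonoidHom.inl G R.Γ).comp L.subtype).codRestrict Γ fun x => mΓ.2 (by simpa using LK.le x.2)).codRestrict _
      fun x => x.2) (t.isCharacter.comp (inclusion (comap_mono LH))) (by
        convert hφ using 2 with x
        refine (m2 _).trans ?_
        erw [map_one R.mu, Units.val_one, one_mul]; rfl)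
  obtain ⟨M, hM, LM, nh⟩ := not_homog (L.comap π) (H.comap π) (comap_mono LH) (isCoatom_comap_of_surjective hπ hH)
    (Group.isSolvable_of_isSolvable_injective (f := QuotientGroup.map (L.comap π) L π le_rfl)
      ((injective_iff_map_eq_one _).2 fun y hy => by
        obtain ⟨y, rfl⟩ := QuotientGroup.mk_surjective y
        exact (QuotientGroup.eq_one_iff _).2 ((QuotientGroup.eq_one_iff (π y)).1 hy))) _ t t2 t1
  obtain ⟨T, MT, hT, ζ, hζ, e2⟩ := exists_ind_of_not_homogeneous t1 nh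
  obtain ⟨T, rfl⟩ : ∃ T₀ : Subgroup G, T₀.comap π = T :=
    ⟨T.map π, comap_map_eq_self ((ker_le_comap π L).trans (LM.trans MT))⟩
  have e3 := ind_mul_res _ ζ c.isClassFunction
  rw [e2, e1] at e3
  have t3 := irr_of_ind_irr _ (hζ.isCharacter.mul (c.restrict _)) (e3 ▸ x1)
  have s1 : Function.Surjective (π.subgroupComap T) := π.subgroupComap_surjective_of_surjective T hπ
  obtain ⟨ξ, hξ, -, e4⟩ := exists_constituent_comp (π.subgroupComap T) (hχ.isClassFunction.restrict T)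
    (β := ζ * fun h : T.comap π => β (σ h)) (by
      erw [← inner_ind_right _ _ x1.isClassFunction, e3, x1.classInner_self]; simp)
  have e5 : indFun T ξ = indFun H ϑ := funext fun g => by
    obtain ⟨x, rfl⟩ := hπ g
    rw [← congrFun e3 x, ← (hξ.comp_surjective _ s1).eq_of_classInner_ne_zero t3 e4]
    exact (congrFun (ind_comap π hπ T ξ) x).symm
  obtain rfl : L.comap π = M := LM.antisymm (map_le_iff_le_comap.1 (eq_of_le_of_not_lt
    ((map_comap_eq_self_of_surjective hπ L).ge.trans (map_mono LM)) fun k => max _ ⟨hM.map π hπ, T,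
      map_le_iff_le_comap.2 MT, by rintro rfl; exact hT (comap_top π), ξ, hξ.isCharacter, e5⟩ k).ge)
  obtain ⟨n, -, -, e6⟩ := exists_res_eq_nsmul_of_invariant t1 t2 (fun x => funext fun y => by
    rw [cj_apply, m2, m2, ← R.mu_conj (σ x) ⟨σ y, m1 y⟩, ← congrFun (iφ (π x)) ⟨π y, y.2⟩]
    simp [cj_apply]) (inner_comp_ne_zero_of_constituent (inclusion (comap_mono LH)) (t1.isCharacter.restrict _) t (by
      rw [← inner_ind_right _ _ t1.isClassFunction, t1.classInner_self]; simp) t2.isCharacter (by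
        erw [t2.classInner_self]; simp))
  exact nh ⟨_, n, t2, e6⟩

end H6
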