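import Cfsg.Agent.H8.Bs1

/-! Bases of size two, primitive case: the semiregular piece `X2` (`key`, `x2`). -/

set_option autoImplicit false

namespace H6.BsX2
open Subgroup Cfsg H18 H21 H21.Rb H8.Bs
open scoped commutatorElement
universe u

theorem key {G : Type*} [Group G] [Finite G] {V A Z E : Subgroup G} {g t : G} (c : PS V A Z E) (gE : g ∈ E)
    (hM : E ⊓ C1(g) ≤ zpowers g) (ht : t ∈ A) (tg : t * g * t⁻¹ = g) {s : ℕ} (hs : s.Prime) (ts : t ^ s = 1) :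
    t ∈ E := by
  haveI := Fact.mk hs
  have ZM : Z ≤ zpowers g := fun z hz => hM (mem_inf.2 ⟨c.ZE hz, C1_iff.2 (conj_of_C (c.EC gE) hz)⟩)
  have tM : ∀ m ∈ zpowers g, t * m * t⁻¹ = m := by
    rintro _ ⟨i, rfl⟩
    show t * g ^ i * t⁻¹ = g ^ i
    rw [← conj_zpow, tg]
  have tg' : t⁻¹ * g * t = g := by
    conv_lhs => rw [← tg]
    group
  have dE : ∀ h ∈ E, h⁻¹ * (t * h * t⁻¹) ∈ E := fun h hh => mul_mem (inv_mem hh) (conj_mem c.nE.norm ht hh)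
  have dM : ∀ h ∈ E, h⁻¹ * (t * h * t⁻¹) ∈ zpowers g := fun h hh => hM (mem_inf.2 ⟨dE h hh, mem_C1_comm.1 (C1_iff.2 (by
    have e := tM (h * g * h⁻¹) (by
      have := mul_mem (ZM (c.cm hh gE)) (mem_zpowers g)
      simpa [commutatorElement_def] using this)
    calc _ = h⁻¹ * (t * (h * (t⁻¹ * g * t) * h⁻¹) * t⁻¹) * h := by group
      _ = _ := by rw [tg', e]; group))⟩)
  have ds : ∀ h ∈ E, (h⁻¹ * (t * h * t⁻¹)) ^ s = 1 := fun h hh => by
    have k : ∀ i : ℕ, t ^ i * h * (t ^ i)⁻¹ = h * (h⁻¹ * (t * h * t⁻¹)) ^ i := fun i => by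
      induction i with
      | zero => simp
      | succ i ih =>
        calc _ = t * (t ^ i * h * (t ^ i)⁻¹) * t⁻¹ := by group
          _ = (t * h * t⁻¹) * (t * (h⁻¹ * (t * h * t⁻¹)) ^ i * t⁻¹) := by rw [ih]; group
          _ = _ := by rw [tM _ (pow_mem (dM h hh) i), pow_succ' (h⁻¹ * (t * h * t⁻¹)), ← mul_assoc h, mul_inv_cancel_left]
    have := k s
    rw [ts] at this
    simpa using this.symm
  have dZ : ∀ h ∈ E, h⁻¹ * (t * h * t⁻¹) ∈ Z := fun h hh => by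
    by_contra n
    have : ¬ ∀ e ∈ E, ⁅h⁻¹ * (t * h * t⁻¹), e⁆ = 1 := fun k => n (c.CE (mem_inf.2 ⟨c.nE.le (dE h hh),
      mem_C.2 fun e he => (commutatorElement_eq_one_iff_mul_comm.1 (k e he)).symm⟩))
    push Not at this
    obtain ⟨e, he, ne⟩ := this
    have o : orderOf ⁅h⁻¹ * (t * h * t⁻¹), e⁆ = s := orderOf_eq_prime (by
      rw [← comm_pow_left (c.cmm (dE h hh) he (dE h hh)), ds h hh, commutatorElement_one_left]) ne
    exact n (zpowers_le.2 (c.cm (dE h hh) he) (cyc_zpowers.mem_of_pow (zpowers_le.2 (ZM (c.cm (dE h hh) he)))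
      (dM h hh) (by rw [card_zpowers', o, ds h hh])))
  let φ : E →* Z := MonoidHom.mk' (fun n => ⟨⁅g, (n : G)⁆, c.cm gE n.2⟩) fun a b =>
    Subtype.ext (H21.comm_mul_right (c.cmm gE b.2 a.2))
  haveI := c.cyc
  obtain ⟨⟨_, h, rfl⟩, hh⟩ := IsCyclic.exists_generator (α := φ.range)
  have ker : ∀ n ∈ E, ⁅g, n⁆ = 1 → n ∈ zpowers g := fun n hn e =>
    hM (mem_inf.2 ⟨hn, mem_C1.2 (commutatorElement_eq_one_iff_mul_comm.1 e).symm⟩)
  have hd : Commute (h : G) ((h : G)⁻¹ * (t * h * t⁻¹)) := (mem_C.1 (c.EC h.2) _ (dZ h h.2)).symm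
  have dk : ((h : G)⁻¹ * (t * h * t⁻¹)) ^ orderOf ⁅g, (h : G)⁆ = 1 := by
    have e := tM _ (ker _ (pow_mem h.2 (orderOf ⁅g, (h : G)⁆)) (by
      rw [comm_pow_right (c.cmm gE h.2 h.2), pow_orderOf_eq_one]))
    rw [← conj_pow, ← mul_inv_cancel_left (h : G) (t * h * t⁻¹), hd.mul_pow] at e
    exact mul_eq_left.1 e
  obtain ⟨i, hi⟩ := c.cyc.mem_of_pow (zpowers_le.2 (c.cm gE h.2)) (dZ h h.2) (by rw [card_zpowers', dk])
  have e1 : g ^ i * h * (g ^ i)⁻¹ = t * h * t⁻¹ := by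
    have : ⁅g ^ i, (h : G)⁆ = (h : G)⁻¹ * (t * h * t⁻¹) := by rw [comm_zpow_left (c.cmm gE h.2 gE)]; exact hi
    calc _ = ⁅g ^ i, (h : G)⁆ * h := by rw [commutatorElement_def]; group
      _ = _ := by rw [this, ← hd.eq, mul_inv_cancel_left]
  have uh : ∀ j : ℤ, (g ^ i)⁻¹ * t * (h : G) ^ j * ((g ^ i)⁻¹ * t)⁻¹ = (h : G) ^ j := fun j => by
    rw [← conj_zpow]
    congr 1
    calc _ = (g ^ i)⁻¹ * (t * h * t⁻¹) * g ^ i := by group
      _ = _ := by rw [← e1]; group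
  have uM : ∀ m ∈ zpowers g, (g ^ i)⁻¹ * t * m * ((g ^ i)⁻¹ * t)⁻¹ = m := fun m hm => by
    calc _ = (g ^ i)⁻¹ * (t * m * t⁻¹) * g ^ i := by group
      _ = _ := by
        rw [tM m hm]
        obtain ⟨j, rfl⟩ := hm
        group
  have uC : (g ^ i)⁻¹ * t ∈ C(E) := C_of_conj fun n hn => by
    obtain ⟨j, hj⟩ := hh ⟨φ ⟨n, hn⟩, _, rfl⟩
    have e2 : φ ((h ^ j)⁻¹ * ⟨n, hn⟩) = 1 := by
      rw [map_mul, map_inv, map_zpow, inv_mul_eq_one]; exact congrArg Subtype.val hj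
    have e3 : ((h : G) ^ j)⁻¹ * n ∈ zpowers g :=
      ker _ (mul_mem (inv_mem (zpow_mem h.2 _)) hn) (congrArg Subtype.val e2)
    calc _ = ((g ^ i)⁻¹ * t * (h : G) ^ j * ((g ^ i)⁻¹ * t)⁻¹) *
          ((g ^ i)⁻¹ * t * (((h : G) ^ j)⁻¹ * n) * ((g ^ i)⁻¹ * t)⁻¹) := by group
      _ = _ := by rw [uh, uM _ e3]; group
  have := mul_mem (zpow_mem gE i) (c.ZE (c.CE (mem_inf.2 ⟨mul_mem (inv_mem (zpow_mem (c.nE.le gE) i)) ht, uC⟩)))
  simpa using this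

theorem x2 : X2.{u} := by
  intro G _ _ V A Z E c V0 sr
  have fx : ∀ n ∈ E, ∀ v ∈ V, v ≠ 1 → n * v * n⁻¹ = v → n = 1 := fun n hn v hv v1 e => by
    by_contra k
    exact v1 (eq_one_of_eq_bot (sr n hn k) (mem_inf.2 ⟨hv, C1_iff.2 e⟩))
  obtain ⟨M, ZM, hM⟩ := exists_max_abel c.cyc.abel c.ZE
  have ME : M ≤ E := hM.ge.trans inf_le_left
  have aM : Abel M := hM.ge.trans inf_le_right
  obtain ⟨X, XV, hX⟩ := exists_minNorm V0 (ME.trans c.EV)
  obtain ⟨g, hg, e⟩ := hX.exists_gen (c.abV.mono XV) (by rw [aM.der]; exact bot_le)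
  obtain ⟨x, hx, x1⟩ := exists_mem_ne_one' hX.ne_bot
  have e1 : M ≤ zpowers g := by
    have n2 : Nrm2 (zpowers g) C(X) := Or.inl ((zpowers_le.2 hg).trans (norm_C hX.norm))
    refine (le_inf le_rfl e).trans ?_
    rw [n2.modular_left (zpowers_le.2 hg)]
    exact sup_le le_rfl fun u hu => by
      rw [fx u (ME hu.1) x (XV hx) x1 (conj_of_C hu.2 hx)]; exact one_mem _
  have gE : g ∈ E := ME hg
  have hM' : E ⊓ C1(g) ≤ zpowers g := by
    refine le_trans ?_ (hM.le.trans e1)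
    rw [← C_zpowers]
    exact inf_le_inf_left _ (C_anti e1)
  refine ⟨x, g * x * g⁻¹, XV hx, conj_mem c.EV gE (XV hx), fun t ht e0 e2 => ?_⟩
  have tg : t * g * t⁻¹ = g := (inv_mul_eq_one.1 (fx (g⁻¹ * (t * g * t⁻¹))
    (mul_mem (inv_mem gE) (conj_mem c.nE.norm ht gE)) x (XV hx) x1 (by
      conv_lhs => rw [← e0]
      calc _ = g⁻¹ * (t * (g * x * g⁻¹) * t⁻¹) * g := by group
        _ = _ := by rw [e2]; group))).symm
  have pw : ∀ y : G, t * y * t⁻¹ = y → ∀ n : ℕ, t ^ n * y * (t ^ n)⁻¹ = y := fun y hy n => by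
    induction n with
    | zero => simp
    | succ n ih =>
      calc _ = t * (t ^ n * y * (t ^ n)⁻¹) * t⁻¹ := by group
        _ = _ := by rw [ih, hy]
  have : t = 1 := by
    by_contra t1
    have o1 : orderOf t ≠ 1 := fun e => t1 (orderOf_eq_one_iff.1 e)
    obtain ⟨s, hs, n, hn⟩ := Nat.exists_prime_and_dvd o1
    have m := key c gE hM' (pow_mem ht n) (pw g tg n) hs (by rw [← pow_mul, mul_comm, ← hn, pow_orderOf_eq_one])
    have := orderOf_dvd_of_pow_eq_one (fx _ m x (XV hx) x1 (pw x e0 n))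
    have p := orderOf_pos t
    have n0 : 0 < n := Nat.pos_of_ne_zero fun e => by rw [e, mul_zero] at hn; omega
    have := Nat.le_of_dvd n0 this
    have := hs.two_le
    nlinarith
  rw [this]; exact one_mem _

end H6.BsX2
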