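import Cfsg.Agent.H8.Res
import Cfsg.Agent.H8.Cod
import Cfsg.Agent.H6.Extension
/-! Characters over an invariant character when the factor group is abelian (`H6.abel_inv`, `H6.abel_inertia`) and
Dade's detection lemma (`H6.dade`). -/
set_option autoImplicit false
open scoped ComplexConjugate
open H5 Cfsg
namespace H6

variable {G : Type*} [Group G] [Fintype G] {N : Subgroup G} [hN : N.Normal] {θ : N → ℂ}

theorem abel_inv [Fintype N] (hab : commutator G ≤ N) (hθ : IsIrrCharacter N θ) (hi : ∀ g, cj θ g = θ) :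
    ∃ (e : ℕ) (C : Finset (G → ℂ)), 0 < e ∧ (∀ χ ∈ C, IsIrrCharacter G χ ∧ classInner (indFun N θ) χ ≠ 0 ∧ χ 1 = e * θ 1) ∧
      e ^ 2 * C.card = N.index ∧ indFun N θ = (e : ℂ) • ∑ χ ∈ C, χ ∧
      ∀ χ, IsIrrCharacter G χ → classInner (fun n : N => χ n) θ ≠ 0 → (fun n : N => χ n) = (e : ℂ) • θ := by
  classical
  obtain ⟨χ₀, h0, h1⟩ := exists_irr_over hθ
  obtain ⟨e, pos, -, h2⟩ := exists_res_eq_nsmul_of_invariant h0 hθ hi h1
  have key : ∀ χ, IsIrrCharacter G χ → classInner (fun n : N => χ n) θ ≠ 0 → (fun n : N => χ n) = (e : ℂ) • θ :=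
    fun χ hχ k => by
      have := inner_ne_zero_of_common (h0.isCharacter.restrict N) (hχ.isCharacter.restrict N) hθ h1 k
      rw [H8.inner_res_res h0.isClassFunction hχ.isClassFunction] at this
      obtain ⟨β, -, hβ⟩ := Finset.exists_ne_zero_of_sum_ne_zero this
      split_ifs at hβ with m
      · have b1 := H8.apply_one_of_mem_kerSet hab m
        rw [← (H8.isIrr_mul_linear β.2.isCharacter b1 h0).eq_of_classInner_ne_zero hχ (right_ne_zero_of_mul hβ), ← h2]
        funext n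
        rw [Pi.mul_apply, m n n.2, b1, one_mul]
      · exact absurd rfl hβ
  have k2 : ∀ χ : IrrCharacter G, classInner (indFun N θ) χ ≠ 0 → classInner (indFun N θ) χ = e := fun χ m => by
    rw [inner_ind_left _ _ χ.2.isClassFunction] at m ⊢
    rw [key χ χ.2 fun k => m ((classInner_eq_zero_comm _ _).1 k), classInner_smul_right, hθ.classInner_self]; simp
  let C : Finset (IrrCharacter G) := Finset.univ.filter fun χ => classInner (indFun N θ) χ ≠ 0
  have e1 : indFun N θ = (e : ℂ) • ∑ χ ∈ C.map (Function.Embedding.subtype _), χ := by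
    rw [Finset.sum_map, Finset.smul_sum, Finset.sum_filter]
    refine (classFun_ind N θ).eq_sum_irr.trans (Finset.sum_congr rfl fun χ _ => ?_)
    split_ifs with m
    · rw [k2 χ m]; rfl
    · rw [not_not.1 m, zero_smul]
  refine ⟨e, C.map (Function.Embedding.subtype _), pos, fun χ hχ => ?_, ?_, e1, key⟩
  · obtain ⟨χ, m, rfl⟩ := Finset.mem_map.1 hχ
    have m' := (Finset.mem_filter.1 m).2
    refine ⟨χ.2, m', ?_⟩
    rw [inner_ind_left _ _ χ.2.isClassFunction] at m'
    exact congrFun (key χ χ.2 fun k => m' ((classInner_eq_zero_comm _ _).1 k)) 1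
  · have := inner_ind_self_of_invariant hθ hi
    rw [(classFun_ind N θ).classInner_eq_sum, Finset.sum_congr rfl (g := fun χ : IrrCharacter G =>
      if classInner (indFun N θ) χ ≠ 0 then (e : ℂ) ^ 2 else 0) fun χ _ => by
        split_ifs with m
        · rw [k2 χ m, map_natCast, pow_two]
        · rw [not_not.1 m, zero_mul], ← Finset.sum_filter, Finset.sum_const, nsmul_eq_mul,
      mul_comm] at this
    rw [Finset.card_map]
    exact_mod_cast this

theorem abel_inertia (T : Subgroup G) (hθ : IsIrrCharacter N θ) (hT : T = inertia θ)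
    (hab : ∀ x ∈ T, ∀ y ∈ T, x * y * x⁻¹ * y⁻¹ ∈ N) :
    ∃ (e : ℕ) (C : Finset (G → ℂ)), 0 < e ∧ (∀ χ ∈ C, IsIrrCharacter G χ) ∧ e ^ 2 * C.card = N.relIndex T ∧
      indFun N θ = (e : ℂ) • ∑ χ ∈ C, χ ∧ (∀ χ ∈ C, χ 1 = (T.index : ℂ) * e * θ 1) ∧
      ((Nat.card N).Coprime (N.relIndex T) → e = 1) := by
  classical
  have := Fintype.ofFinite T
  have hNT : N ≤ T := hT ▸ le_inertia hθ.isClassFunction
  have i1 := isIrr_sOf hNT hθ
  have i2 : ∀ g : T, cj (sOf θ T) g = sOf θ T := fun g => by rw [cj_sOf, mem_inertia.1 (hT ▸ g.2)]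
  obtain ⟨e, C, pos, h1, h2, h3, h4⟩ := abel_inv (N := N.subgroupOf T)
    (Subgroup.commutator_le.2 fun x _ y _ => hab x x.2 y y.2) i1 i2
  obtain ⟨a, b, -⟩ := corr_aux hθ hT.ge
  have inj : Set.InjOn (indFun T) C := fun ψ hψ ψ' hψ' =>
    b ψ ψ' (h1 ψ hψ).1 (h1 ψ hψ).2.1 (h1 ψ' hψ').1 (h1 ψ' hψ').2.1
  refine ⟨e, C.image (indFun T), pos, fun χ hχ => ?_, by rwa [Finset.card_image_of_injOn inj], ?_, fun χ hχ => ?_,
    fun hc => ?_⟩
  · obtain ⟨ψ, m, rfl⟩ := Finset.mem_image.1 hχ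
    exact (a ψ (h1 ψ m).1 (h1 ψ m).2.1).1
  · rw [Finset.sum_image inj, ← ind_sum, ← ind_smul, ← h3, ind_trans N T hNT]
  · obtain ⟨ψ, m, rfl⟩ := Finset.mem_image.1 hχ
    rw [ind_one, (h1 ψ m).2.2, mul_assoc]; rfl
  · obtain ⟨χ, hχ, k⟩ := ext_of_coprime_card i1 i2 (by rwa [Nat.card_congr (Subgroup.subgroupOfEquivOfLe hNT).toEquiv])
    have := congrFun (h4 χ hχ (by rw [funext k, i1.classInner_self]; exact one_ne_zero)) 1
    rw [k 1, Pi.smul_apply, smul_eq_mul, eq_comm, mul_eq_right₀ i1.apply_one_ne_zero] at this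
    exact_mod_cast this

theorem dvd_sum_of_fixed {E X : Type*} [Group E] [MulAction E X] [Fintype X] {p k : ℕ} (hp : p.Prime) (D : Subgroup E)
    (hD : D.index ∣ p ^ k) (h1 : ∀ x : X, D ≤ MulAction.stabilizer E x) (f : X → ℕ) (hf : ∀ (g : E) x, f (g • x) = f x)
    (h2 : ∀ x : X, (∀ g : E, g • x = x) → p ∣ f x) : p ∣ ∑ x, f x := by
  classical
  rw [← Finset.sum_fiberwise (g := Quotient.mk (MulAction.orbitRel E X))]
  refine Finset.dvd_sum fun ω _ => ?_
  obtain ⟨x, rfl⟩ := Quotient.exists_rep ω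
  rw [Finset.sum_congr rfl (g := fun _ => f x) fun y hy => by
    obtain ⟨g, rfl⟩ := Quotient.exact (Finset.mem_filter.1 hy).2
    exact hf g x, Finset.sum_const, smul_eq_mul]
  by_cases c : MulAction.stabilizer E x = ⊤
  · exact (h2 x fun g => (c ▸ Subgroup.mem_top g : g ∈ MulAction.stabilizer E x)).mul_left _
  obtain ⟨i, -, hi⟩ := (Nat.dvd_prime_pow hp).1 ((Subgroup.index_dvd_of_le (h1 x)).trans hD)
  refine Dvd.dvd.mul_right ?_ _
  have : (Finset.univ.filter fun y => Quotient.mk (MulAction.orbitRel E X) y = Quotient.mk _ x).card =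
      (MulAction.stabilizer E x).index := by
    rw [MulAction.index_stabilizer, ← Set.ncard_coe_finset]
    congr 1; ext y
    simp [Quotient.eq, MulAction.orbitRel_apply]
  rw [this, hi]
  exact dvd_pow_self p fun k => c (Subgroup.index_eq_one.1 (by rw [hi, k, pow_zero]))

theorem dade {p k : ℕ} (hp : p.Prime) (hind : N.index = p ^ k) (hθ : IsIrrCharacter N θ) (hi : ∀ g, cj θ g = θ) :
    ∃ (E : Subgroup G) (φ : N.subgroupOf E → ℂ), IsElementary p E ∧ E ⊔ N = ⊤ ∧ IsIrrCharacter _ φ ∧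
      (∀ g : E, cj φ g = φ) ∧ ∃ m : ℕ, ¬ p ∣ m ∧ ∀ [Fintype (N.subgroupOf E)], classInner (sOf θ E) φ = m := by
  classical
  by_contra hc
  push Not at hc
  obtain ⟨m, hm, h1⟩ := brauer_local (G := G) hp
  have c1 := hθ.isCharacter.mul hθ.isCharacter.conj
  have := inner_mem_of_mem_indSpan (AddSubgroup.zmultiples (p : ℂ)) (classFun_ind N (θ * fun n => conj (θ n)))
    (fun E hE _ φ hφ => ?_) h1
  · rw [inner_ind_left _ _ (isClassFunction_const _), show (fun _ : N => (m : ℂ)) = (m : ℂ) • fun _ => 1 by ext; simp,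
      classInner_smul_right, classInner_mul_left] at this
    simp only [map_intCast, Complex.conj_conj] at this
    rw [show ((fun _ : N => (1 : ℂ)) * fun g => θ g) = θ by ext; simp, hθ.classInner_self, mul_one] at this
    obtain ⟨a, ha⟩ := AddSubgroup.mem_zmultiples_iff.1 this
    exact hm ⟨a, by rw [zsmul_eq_mul, mul_comm] at ha; exact_mod_cast ha.symm⟩
  have inv : ∀ g, cj (θ * fun n => conj (θ n)) g = θ * fun n => conj (θ n) := fun g => by
    rw [cj_mul', show cj (fun n => conj (θ n)) g = fun n => conj (cj θ g n) from rfl, hi]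
  have t := isCharacter_sOf hθ.isCharacter E
  have r := hφ.restrict (N.subgroupOf E)
  obtain ⟨j, hj⟩ := t.exists_classInner_nat (r.mul t)
  have e1 : classInner (fun e : E => indFun N (θ * fun n => conj (θ n)) e) φ = (E ⊔ N).index * (j : ℂ) := by
    have a : (fun e : E => indFun N (θ * fun n => conj (θ n)) e) =
        (N.index : ℂ) • extendByZero (N.subgroupOf E) (sOf θ E * fun n => conj (sOf θ E n)) := funext fun e => by
      by_cases he : (e : G) ∈ N
      · rw [Pi.smul_apply, ebz_mem _ _ (Subgroup.mem_subgroupOf.2 he)]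
        exact congrFun (res_ind_of_invariant inv) ⟨e, he⟩
      · rw [Pi.smul_apply, ebz_not_mem _ _ (fun k => he (Subgroup.mem_subgroupOf.1 k)), ind_normal_of_not_mem _ _ he,
          smul_zero]
    have b : classInner (sOf θ E * fun n => conj (sOf θ E n)) (fun x : N.subgroupOf E => φ x) = j := by
      rw [classInner_mul_left, ← hj]; simp only [Complex.conj_conj]
    have c2 := card_mul_classInner (sOf θ E * fun n => conj (sOf θ E n)) (fun x : N.subgroupOf E => φ x)
    rw [a, classInner_smul_left, classInner, sum_ebz_mul, ← c2, b, ← (N.subgroupOf E).card_mul_index,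
      ← Subgroup.relIndex_mul_index (le_sup_right : N ≤ E ⊔ N), Subgroup.relIndex_sup_right]
    have z1 := card_ne_zero (N.subgroupOf E)
    have z2 : ((N.subgroupOf E).index : ℂ) ≠ 0 := by exact_mod_cast Subgroup.index_ne_zero_of_finite
    rw [Subgroup.relIndex]
    push_cast
    field_simp
  rw [e1, ← Nat.cast_mul]
  suffices p ∣ (E ⊔ N).index * j by
    obtain ⟨a, ha⟩ := this
    exact AddSubgroup.mem_zmultiples_iff.2 ⟨a, by rw [ha]; simp [mul_comm]⟩
  by_cases top : E ⊔ N = ⊤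
  · obtain ⟨a, ha, -⟩ := t.exists_nat
    obtain ⟨b, hb, -⟩ := (r.mul t).exists_nat
    have e2 : j = ∑ χ, a χ * b χ := by
      rw [t.isClassFunction.classInner_eq_sum] at hj
      simp only [ha, hb, map_natCast] at hj
      exact_mod_cast hj.symm
    letI := H8.irrAct (N.subgroupOf E)
    have sm : ∀ (g : E) (χ : IrrCharacter (N.subgroupOf E)), (g • χ).1 = cj χ.1 g⁻¹ := fun _ _ => rfl
    have i1 : ∀ g : E, cj (sOf θ E) g = sOf θ E := fun g => by rw [cj_sOf, hi]
    refine Dvd.dvd.mul_left (e2 ▸ dvd_sum_of_fixed hp (N.subgroupOf E) (hind ▸ Subgroup.relIndex_dvd_index_of_normal N E)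
      (fun χ g hg => Subtype.ext (cj_of_mem χ.2.isClassFunction (inv_mem hg))) _ (fun g χ => ?_) fun χ k => ?_) _
    · have a1 : (a (g • χ) : ℂ) = a χ := by rw [← ha, ← ha, sm, ← inner_cj_cj _ χ.1 g⁻¹, i1]
      have b1 : (b (g • χ) : ℂ) = b χ := by
        rw [← hb, ← hb, sm, ← inner_cj_cj _ χ.1 g⁻¹, cj_mul', i1, cj_res hφ.isClassFunction]
      rw [Nat.cast_injective a1, Nat.cast_injective b1]
    · refine Dvd.dvd.mul_right (by_contra fun k' => ?_) _
      obtain ⟨_, k2⟩ := hc E χ.1 hE top χ.2 (fun g => by simpa [sm] using congrArg Subtype.val (k g⁻¹)) (a χ) k'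
      exact k2 (by rw [← ha]; congr 1; exact Subsingleton.elim _ _)
  obtain ⟨i, -, hi⟩ := (Nat.dvd_prime_pow hp).1 (hind ▸ Subgroup.index_dvd_of_le (le_sup_right : N ≤ E ⊔ N))
  exact Dvd.dvd.mul_right (hi ▸ dvd_pow_self p fun k => top (Subgroup.index_eq_one.1 (by rw [hi, k, pow_zero]))) _

end H6
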