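import Cfsg.Agent.H2.Gd1

/-! Piece `PF` of the four-degree theorem: characters of `p'`-degree when only one nonlinear `p'`-degree occurs
(`H6.GdF.pF`). -/

set_option autoImplicit false

namespace H6.GdF

open Subgroup Cfsg H18 H5 H6 H8 H2.Gd
open scoped commutatorElement

universe u

theorem inertia_le_det {G : Type*} [Group G] [Finite G] {M : Subgroup G} [M.Normal] {φ : M → ℂ}
    (h : IsCharacter M φ) : inertia φ ≤ inertia fun m => (detHom φ m : ℂ) := fun g hg => by
  have := detChar_comp (MulAut.conjNormal (H := M) g).toMonoidHom h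
  rw [show (fun x => φ ((MulAut.conjNormal (H := M) g).toMonoidHom x)) = φ from hg] at this
  funext m
  have e : detChar φ m = detChar φ ⟨g * m * g⁻¹, _⟩ := congrFun this m
  simp only [cj_apply, coe_detHom, e]

theorem pow_pGen {G : Type*} [Group G] [Finite G] {p : ℕ} (hp : p.Prime) (lam : pGen p G →* ℂˣ) (y : pGen p G) :
    lam y ^ p ^ Nat.card G = 1 := by
  obtain ⟨y, hy⟩ := y
  induction hy using closure_induction with
  | mem x hx =>
    obtain ⟨j, hj⟩ := hx
    have l : j ≤ Nat.card G := ((Nat.lt_pow_self hp.one_lt).trans_le (hj ▸ orderOf_le_card)).le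
    have : x ^ p ^ Nat.card G = 1 := orderOf_dvd_iff_pow_eq_one.1 (hj ▸ pow_dvd_pow p l)
    rw [← map_pow, ← map_one lam]
    exact congrArg lam (Subtype.ext this)
  | one =>
    change lam 1 ^ _ = 1
    simp
  | mul x y hx hy a b =>
    change lam (⟨x, hx⟩ * ⟨y, hy⟩) ^ _ = 1
    rw [map_mul, mul_pow, a, b, one_mul]
  | inv x hx a =>
    change lam (⟨x, hx⟩)⁻¹ ^ _ = 1
    rw [map_inv, inv_pow, a, inv_one]

theorem pF (hE : Ext.{u}) : PF.{u} := by
  intro N _ _ _ p b hp hi h θ hθ dθ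
  classical
  haveI := Fact.mk hp
  haveI := Fintype.ofFinite N
  have iL : ¬ p ∣ (pGen p N).index := not_dvd_index_pGen
  have LD : pGen p N ≤ commutator N := (closure_le _).2 fun x ⟨j, hj⟩ =>
    PiElt.mem_of_nml (π := {p}) (M := ⊤) (show PiNat {p} (orderOf x) from hj ▸ piNat_pow_self hp j) trivial nml_top
      ((piNat_compl_iff hp).2 (by rwa [relIndex_top_right]))
  have pw := pow_pGen (G := N) hp
  have nL : (pGen p N).Normal := inferInstance
  generalize pGen p N = L at iL LD pw nL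
  haveI := Fintype.ofFinite L
  refine (der2_mod (K := ⁅L, L⁆) (a := b) fun χ hχ k =>
    h χ hχ fun d => iL (d.trans (deg_dvd_index_of_comm hχ L k))).trans ?_
  by_cases L0 : L = ⊥
  · exact der_le.trans (L0.le.trans bot_le)
  have key : ∀ δ : L →* ℂˣ, δ ≠ 1 → (inertia fun y => (δ y : ℂ)).index = b := fun δ d1 => by
    obtain ⟨χ, hχ, o, e⟩ := hE N L δ _ ((hp.coprime_iff_not_dvd.2 iL).pow_left _) (pw δ)
    refine e ▸ (h χ hχ fun d => iL ((e ▸ d).trans
      (index_dvd_of_le (le_inertia (isCharacter_hom δ).isClassFunction)))).resolve_left fun k => d1 (MonoidHom.ext fun y => ?_)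
    have := ker_le_of_constituent hχ.isCharacter (isIrrCharacter_hom δ) o
      (show y ∈ (charKer χ).subgroupOf L from (by_contra fun l => (not_le_ker_iff hχ).1 l k :
        commutator N ≤ charKer χ) (LD y.2))
    rwa [charKer_hom] at this
  obtain ⟨φ, hφ, o⟩ := exists_irr_under (N := L) hθ
  obtain ⟨t, -, et⟩ := deg_dvd_of_under hθ hφ o
  have dφ : ¬ p ∣ charDegree φ := fun d => dθ (et ▸ d.mul_left t)
  suffices e : charDegree φ = 1 from le_ker_of_constituent der_le hθ hφ.isCharacter o (by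
    rw [← map_subtype_commutator, subgroupOf, comap_map_eq_self_of_injective L.subtype_injective]
    exact by_contra fun l => (not_le_ker_iff hφ).1 l e)
  obtain ⟨ψ, hψ, dψ, d1⟩ : ∃ ψ : L → ℂ, IsIrrCharacter L ψ ∧ charDegree ψ = charDegree φ ∧ detHom ψ ≠ 1 := by
    by_cases e : detHom φ = 1
    · obtain ⟨m, hm, mR⟩ := SetLike.not_le_iff_exists.1 (Solv.der_lt (inferInstance : Solv L) L0).not_ge
      obtain ⟨σ, -, s2⟩ := exists_lin_ne_one (N := commutator L) (g := ⟨m, hm⟩) le_rfl fun hz =>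
        mR (map_subtype_commutator L ▸ mem_map_of_mem L.subtype hz)
      refine ⟨φ * fun g => (σ g : ℂ), hφ.mul_hom σ, charDegree_mul_hom σ, fun z => s2 ?_⟩
      have z1 := congrArg Units.val (DFunLike.congr_fun z ⟨m, hm⟩)
      have e1 := congrArg Units.val (DFunLike.congr_fun e ⟨m, hm⟩)
      simp only [coe_detHom, MonoidHom.one_apply, Units.val_one] at z1 e1
      rw [mul_comm, detChar_hom_mul σ hφ.isCharacter hφ.coe_charDegree.symm, e1, mul_one] at z1
      have z2 : σ ⟨m, hm⟩ ^ charDegree φ = 1 := Units.ext (by simpa using z1)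
      rw [← orderOf_eq_one_iff]
      exact Nat.eq_one_of_dvd_coprimes ((hp.coprime_iff_not_dvd.2 dφ).pow_left _)
        (orderOf_dvd_of_pow_eq_one (pw σ _)) (orderOf_dvd_of_pow_eq_one z2)
    · exact ⟨φ, hφ, rfl, e⟩
  obtain ⟨χ, hχ, oχ⟩ := exists_irr_over (G := N) hψ
  obtain ⟨t', t1, t2⟩ := deg_dvd_of_under hχ hψ oχ
  have eb := key _ d1
  have b0 : 0 < b := eb ▸ Nat.pos_of_ne_zero index_ne_zero_of_finite
  have dv : b * charDegree φ ∣ charDegree χ :=
    (Nat.mul_dvd_mul (eb ▸ index_dvd_of_le (inertia_le_det hψ.isCharacter)) dψ.symm.dvd).trans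
      (index_inertia_mul_dvd hχ hψ oχ)
  rcases h χ hχ fun d => (hp.dvd_mul.1 (t2 ▸ d)).elim (fun k => iL (k.trans t1)) fun k => dφ (dψ ▸ k) with e | e
  · exact Nat.dvd_one.1 ((Dvd.intro_left _ rfl).trans (e ▸ dv))
  · exact Nat.dvd_one.1 (Nat.dvd_of_mul_dvd_mul_left b0 (by rw [mul_one]; exact dv.trans e.dvd))

end H6.GdF
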