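import Cfsg.Agent.H8.Cd1
import Cfsg.Agent.H8.Ito
import Cfsg.Agent.H8.PDeg

/-! Kernels of characters of `p'`-degree contain the core of `N P'` when `C_N(P) = 1` (`H6.KpX.pX`). -/

set_option autoImplicit false

namespace H6.KpX

open Subgroup Cfsg H5 H6 H8
open scoped commutatorElement Classical

theorem fib {G : Type*} [Group G] [Finite G] {p : ℕ} [Fact p.Prime] {P N : Subgroup G} [hn : N.Normal]
    (hP : IsPGroup p P) (hN : N ⊓ centralizer (P : Set G) = ⊥) {χ : G → ℂ} (hχ : IsClassFunction G χ) (c : ℂ) :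
    p ∣ Nat.card {n : N // n ≠ 1 ∧ χ n = c} := by
  letI : MulAction P {n : N // n ≠ 1 ∧ χ n = c} :=
    { smul := fun g x => ⟨⟨g * x.1 * (g : G)⁻¹, hn.conj_mem _ x.1.2 _⟩, fun e => x.2.1 (Subtype.ext (by
        have := congrArg Subtype.val e
        simpa using this)), (hχ _ _).trans x.2.2⟩
      one_smul := fun x => Subtype.ext (Subtype.ext (show ((1 : P) : G) * x.1 * ((1 : P) : G)⁻¹ = x.1 by simp))
      mul_smul := fun g h x => Subtype.ext (Subtype.ext (show ((g * h : P) : G) * x.1 * ((g * h : P) : G)⁻¹ =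
        g * (h * x.1 * (h : G)⁻¹) * (g : G)⁻¹ by simp [mul_assoc])) }
  have h := hP.card_modEq_card_fixedPoints {n : N // n ≠ 1 ∧ χ n = c}
  have e : IsEmpty (MulAction.fixedPoints P {n : N // n ≠ 1 ∧ χ n = c}) := ⟨fun ⟨x, hx⟩ => x.2.1 (Subtype.ext
    ((mem_bot.1 (hN ▸ (⟨x.1.2, fun g hg => by
      have : g * x.1 * g⁻¹ = x.1 := congrArg (fun y : {n : N // n ≠ 1 ∧ χ n = c} => (y.1 : G)) (hx ⟨g, hg⟩)
      exact mul_inv_eq_iff_eq_mul.1 this⟩ : (x.1 : G) ∈ N ⊓ centralizer (P : Set G))))))⟩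
  rw [@Nat.card_of_isEmpty _ e] at h
  exact (Nat.modEq_zero_iff_dvd).1 h

theorem le_ker {G : Type*} [Group G] [Finite G] {p : ℕ} [hp : Fact p.Prime] {P N : Subgroup G} [N.Normal]
    (hP : IsPGroup p P) (hN : N ⊓ centralizer (P : Set G) = ⊥) {χ : G → ℂ} (hχ : IsIrrCharacter G χ)
    (hd : ¬ p ∣ charDegree χ) : N ≤ charKer χ := by
  have := Fintype.ofFinite G
  have := Fintype.ofFinite N
  intro n hn
  refine hχ.mem_charKer.2 ((inner_res_one_ne_zero_iff hχ).1 (fun z => hd ?_) ⟨n, hn⟩)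
  have s := card_mul_classInner (φ := fun n : N => χ n) (ψ := fun _ => 1)
  rw [z, mul_zero, ← Finset.add_sum_erase _ _ (Finset.mem_univ (1 : N))] at s
  simp only [map_one, mul_one, OneMemClass.coe_one] at s
  rw [show ∑ x ∈ (Finset.univ : Finset N).erase 1, χ x = _ from Finset.sum_comp id fun x : N => χ x] at s
  choose m hm using fun c => fib hP hN hχ.isClassFunction c
  have p0 : (p : ℂ) ≠ 0 := Nat.cast_ne_zero.2 hp.out.ne_zero
  refine dvd_of_isIntegral_div hp.out.ne_zero ?_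
  have e : (charDegree χ : ℂ) / p = -∑ c ∈ ((Finset.univ : Finset N).erase 1).image fun x : N => χ x, (m c : ℂ) * c := by
    rw [div_eq_iff p0, hχ.coe_charDegree, neg_mul, Finset.sum_mul, eq_neg_iff_add_eq_zero, s]
    congr 1
    refine Finset.sum_congr rfl fun c _ => ?_
    have : (((Finset.univ : Finset N).erase 1).filter fun x : N => χ x = c).card = p * m c := by
      rw [← hm, Nat.subtype_card]
      simp
    rw [this, nsmul_eq_mul, id]
    push_cast
    ring
  rw [e]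
  refine (IsIntegral.sum _ fun c hc => ?_).neg
  obtain ⟨x, -, rfl⟩ := Finset.mem_image.1 hc
  exact (isIntegral_natCast _).mul (hχ.isCharacter.isIntegral _)

theorem pX {G : Type*} [Group G] [Finite G] (p : ℕ) [hp : Fact p.Prime] (P : Sylow p G) (N : Subgroup G) [N.Normal]
    (hN : N ⊓ centralizer ((P : Subgroup G) : Set G) = ⊥) (χ : G → ℂ) (hχ : IsIrrCharacter G χ)
    (hd : ¬ p ∣ charDegree χ) : (N ⊔ ⁅(P : Subgroup G), (P : Subgroup G)⁆).normalCore ≤ charKer χ := by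
  have := Fintype.ofFinite G
  have := Fintype.ofFinite ↥(N ⊔ (P : Subgroup G))
  obtain ⟨μ, h1, h2⟩ := exists_constituent_not_dvd (hχ.isCharacter.restrict (N ⊔ (P : Subgroup G))) (n := p)
    (by rwa [charDegree_congr (ψ := χ) (by simp)])
  have k1 : N.subgroupOf (N ⊔ (P : Subgroup G)) ≤ charKer μ.1 :=
    le_ker (P := (P : Subgroup G).subgroupOf _) P.isPGroup'.comap_subtype (eq_bot_iff.2 fun x hx =>
      mem_bot.2 (Subtype.ext (mem_bot.1 (hN ▸ (⟨hx.1, fun g hg => congrArg Subtype.val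
        (hx.2 ⟨g, mem_sup_right hg⟩ hg)⟩ : (x : G) ∈ N ⊓ centralizer ((P : Subgroup G) : Set G)))))) μ.2 h2
  have d1 : charDegree μ.1 = 1 := by
    have d := deg_dvd_index_of_comm μ.2 (N.subgroupOf (N ⊔ (P : Subgroup G)))
      ((Subgroup.commutator_le_self _).trans k1)
    change _ ∣ N.relIndex _ at d
    rw [relIndex_sup_left] at d
    obtain ⟨k, hk⟩ := P.isPGroup'.exists_card_eq
    exact Nat.eq_one_of_dvd_coprimes ((hp.out.coprime_iff_not_dvd.2 h2).pow_left k)
      (hk ▸ d.trans (relIndex_dvd_card _ _)) dvd_rfl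
  have k2 : commutator ↥(N ⊔ (P : Subgroup G)) ≤ charKer μ.1 := by_contra fun l => (not_le_ker_iff μ.2).1 l d1
  have k3 : N ⊔ ⁅(P : Subgroup G), (P : Subgroup G)⁆ ≤ (charKer μ.1).map (N ⊔ (P : Subgroup G)).subtype :=
    sup_le (fun n hn => ⟨⟨n, mem_sup_left hn⟩, k1 hn, rfl⟩)
      ((commutator_mono le_sup_right le_sup_right).trans ((map_subtype_commutator _).ge.trans (map_mono k2)))
  refine le_ker_of_constituent ((normalCore_le _).trans (sup_le_sup_left (Subgroup.commutator_le_self _) _)) hχ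
    μ.2.isCharacter h1 fun x hx => ?_
  obtain ⟨y, hy, e⟩ := k3 (normalCore_le _ hx)
  rwa [← show y = x from Subtype.ext e]

end H6.KpX
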