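import Cfsg.Agent.H6.KpX

/-! With a normal complement `K` to `H ≥ C(P)`, restriction to `H` is injective on the irreducible characters of
`p'`-degree (`H6.OdC.pC`). -/

set_option autoImplicit false

namespace H6.OdC

open Subgroup Cfsg H5 H6 H8
open scoped Classical

theorem pC {G : Type*} [Group G] [Finite G] (p : ℕ) [Fact p.Prime] (P : Sylow p G) (H K : Subgroup G) [K.Normal]
    (hC : centralizer ((P : Subgroup G) : Set G) ≤ H) (h1 : K ⊓ H = ⊥) (h2 : K ⊔ H = ⊤) :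
    (∑ᶠ χ : {χ : IrrCharacter G // ¬ p ∣ charDegree χ.1}, charDegree χ.1.1 ^ 2) ≤
      ∑ᶠ η : {η : IrrCharacter H // ¬ p ∣ charDegree η.1}, charDegree η.1.1 ^ 2 := by
  have sf : Function.Surjective ((QuotientGroup.mk' K).comp H.subtype) := fun y => by
    obtain ⟨g, rfl⟩ := QuotientGroup.mk'_surjective K y
    obtain ⟨k, hk, h, hh, rfl⟩ := mem_sup_of_normal_left.1 (h2.ge (mem_top g))
    exact ⟨⟨h, hh⟩, by simp [(QuotientGroup.eq_one_iff k).2 hk]⟩
  have df : ∀ χ : {χ : IrrCharacter G // ¬ p ∣ charDegree χ.1}, ∃ β : G ⧸ K → ℂ, IsIrrCharacter (G ⧸ K) β ∧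
      ∀ g : G, β g = χ.1.1 g := fun χ => χ.1.2.exists_deflate K
    (KpX.le_ker P.isPGroup' (le_bot_iff.1 ((inf_le_inf_left K hC).trans h1.le)) χ.1.2 χ.2)
  choose β b1 b2 using df
  have dg : ∀ χ, charDegree (fun x : H => β χ (((QuotientGroup.mk' K).comp H.subtype) x)) = charDegree χ.1.1 :=
    fun χ => charDegree_congr (b2 χ 1)
  let r : {χ : IrrCharacter G // ¬ p ∣ charDegree χ.1} ↪ {η : IrrCharacter H // ¬ p ∣ charDegree η.1} :=
    ⟨fun χ => ⟨⟨_, (b1 χ).comp_surjective _ sf⟩, fun d => χ.2 (dg χ ▸ d)⟩, fun χ ψ e => Subtype.ext (Subtype.ext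
      (funext fun g => by
        obtain ⟨x, hx⟩ := sf g
        have := congrFun (congrArg (fun η : {η : IrrCharacter H // ¬ p ∣ charDegree η.1} => η.1.1) e) x
        rw [← b2, ← b2, ← hx]
        exact this))⟩
  rw [finsum_eq_sum_of_fintype, finsum_eq_sum_of_fintype]
  refine le_trans (le_of_eq ?_) (Finset.sum_le_sum_of_subset (Finset.subset_univ (Finset.univ.map r)))
  rw [Finset.sum_map]
  exact Finset.sum_congr rfl fun χ _ => congrArg (· ^ 2) (dg χ).symm

end H6.OdC
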