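import Cfsg.Agent.H3.Suz4
import Cfsg.Agent.H7.Fl3
import Cfsg.Agent.H1.Hol

/-! Shaw's theorem, coprime kernel: a group of automorphisms of a 2-group with central involutions that is transitive on
the involutions has no element of prime order `r ∣ |Z| - 1` fixing all involutions (`H6.Shk.ker_cop`). -/

set_option autoImplicit false

namespace H6.Shk
open Cfsg H18 H1 H21 H7.FL Subgroup
open scoped commutatorElement

variable {G : Type*} [Group G] [Finite G] {P D Z Y R B : Subgroup G} {x y : G} {r : ℕ}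

theorem nt {n u s : ℕ} (hr : r.Prime) (n1 : n ≠ 0) (u1 : u ≠ 0) (u2 : u ≤ 2 * n)
    (h : 2 ^ n * 2 ^ u = 2 ^ n + (2 ^ n - 1) * s) (h1 : r ∣ 2 ^ n - 1) (h2 : r ∣ s) : False := by
  have q1 : 1 < 2 ^ n := Nat.one_lt_two_pow n1
  have p1 : 1 ≤ 2 ^ u := Nat.one_le_two_pow
  have c : (2 ^ n - 1).Coprime (2 ^ n) := by
    rw [Nat.coprime_comm, Nat.coprime_self_sub_right q1.le]; simp
  have nq : ¬ r ∣ 2 ^ n := fun d => hr.one_lt.ne' (Nat.eq_one_of_dvd_coprimes c h1 d)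
  have e : 2 ^ n * (2 ^ u - 1) = (2 ^ n - 1) * s := by rw [Nat.mul_sub, h]; omega
  have d : 2 ^ n - 1 ∣ 2 ^ u - 1 := c.dvd_of_dvd_mul_left (e ▸ dvd_mul_right _ _)
  have g := Nat.gcd_eq_left d
  rw [Nat.pow_sub_one_gcd_pow_sub_one] at g
  have g' : n.gcd u = n := Nat.pow_right_injective (le_refl 2) (by
    have : 1 ≤ 2 ^ n.gcd u := Nat.one_le_two_pow
    simp only; omega)
  obtain ⟨m, rfl⟩ := g' ▸ Nat.gcd_dvd_right n u
  have m2 : m ≤ 2 := Nat.le_of_mul_le_mul_left (by rw [mul_comm n 2]; exact u2) (Nat.pos_of_ne_zero n1)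
  interval_cases m
  · simp at u1
  · rw [mul_one, mul_comm] at e
    exact nq (Nat.eq_of_mul_eq_mul_left (by omega) e ▸ h2)
  · have e2 : 2 ^ (n * 2) - 1 = (2 ^ n - 1) * (2 ^ n + 1) := by
      rw [pow_mul]; generalize 2 ^ n = q at q1; obtain ⟨k, rfl⟩ := Nat.exists_eq_add_of_lt q1
      rw [Nat.sub_eq_iff_eq_add (Nat.one_le_pow _ _ (by omega)), show 1 + k + 1 - 1 = k + 1 by omega]; ring
    rw [e2, mul_left_comm] at e
    rw [← Nat.eq_of_mul_eq_mul_left (by omega) e] at h2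
    have h3 := (Nat.dvd_sub ((hr.dvd_mul.1 h2).resolve_left nq) h1)
    rw [show 2 ^ n + 1 - (2 ^ n - 1) = 2 by omega] at h3
    exact nq (h3.trans (dvd_pow_self 2 n1))

theorem ex_z (h : Elem 2 Z) {F : Type*} [Field F] [Fintype F] [CharP F 2] (hc : Fintype.card F = Nat.card Z) :
    ∃ z : G → F, (∀ a ∈ Z, ∀ b ∈ Z, z (a * b) = z a + z b) ∧ ∀ a ∈ Z, z a = 0 ↔ a = 1 := by
  classical
  letI : CommGroup Z := { (inferInstance : Group Z) with mul_comm := fun a b => Subtype.ext (comm_of_cent h.abel a.2 b.2) }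
  letI : Module (ZMod 2) (Additive Z) := AddCommGroup.zmodModule fun x =>
    Additive.toMul.injective (Subtype.ext (h.pow _ x.toMul.2))
  letI : Algebra (ZMod 2) F := ZMod.algebra F 2
  have e : Additive Z ≃ₗ[ZMod 2] F := LinearEquiv.ofFinrankEq _ _ (Nat.pow_right_injective (le_refl 2) (by
    have h1 := Module.natCard_eq_pow_finrank (K := ZMod 2) (V := Additive Z)
    have h2 := Module.natCard_eq_pow_finrank (K := ZMod 2) (V := F)
    rw [Nat.card_zmod] at h1 h2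
    simp only
    rw [← h1, ← h2, Nat.card_eq_fintype_card (α := F), hc]; rfl))
  refine ⟨fun x => if hx : x ∈ Z then e (Additive.ofMul ⟨x, hx⟩) else 0, fun a ha b hb => ?_, fun a ha => ?_⟩
  · simp only [dif_pos ha, dif_pos hb, dif_pos (mul_mem ha hb), ← map_add]; rfl
  · simp only [dif_pos ha, e.map_eq_zero_iff]
    exact ⟨fun c => congrArg (fun x : Additive Z => (x.toMul : G)) c, fun c => by subst c; rfl⟩

theorem bound (hD : PiGrp {2} D) (hl : Z ≤ D) (hc : Z ≤ C(D)) (hsq : ∀ x ∈ D, x * x ∈ Z)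
    (hZ : ∀ x ∈ D, x ∈ Z ↔ x * x = 1) (h1 : Z ≠ ⊥) : Z.relIndex D ≤ Nat.card Z ^ 2 := by
  obtain ⟨F, _, _, _, hF⟩ := H3.exists_field_two (hD.of_le hl).card_eq_pow (one_lt_card h1).ne'
  obtain ⟨z, za, zk⟩ := ex_z ⟨cent_mono hc le_rfl hl, fun a ha => by rw [pow_two, (hZ a (hl ha)).1 ha]⟩ hF
  haveI : (Z.subgroupOf D).Normal := (Nml.mk hl (cent_norm (cent_symm hc))).subgroupOf_normal
  have cm : ∀ x ∈ D, ∀ y ∈ D, ⁅x, y⁆ ∈ Z := fun x hx y hy => H3.comm_mem_of_sq hsq hx hy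
  have c1 : ∀ a ∈ Z, ∀ x ∈ D, a ∈ C1(x) := fun a ha x hx => C_le_C1 hx (hc ha)
  let s : D ⧸ Z.subgroupOf D → G := fun v => (v.out : D)
  have hs : ∀ v, s v ∈ D := fun v => v.out.2
  have hm : ∀ v w, ∃ a ∈ Z, s (v * w) = s v * s w * a := fun v w => by
    obtain ⟨a, ha⟩ := QuotientGroup.mk_out_eq_mul (Z.subgroupOf D) (v.out * w.out)
    rw [QuotientGroup.mk_mul, QuotientGroup.out_eq', QuotientGroup.out_eq'] at ha
    exact ⟨_, a.2, congrArg Subtype.val ha⟩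
  have hq : ∀ x ∈ D, ∀ y ∈ D, z (x * y * (x * y)) = z (x * x) + z (y * y) + z ⁅y, x⁆ := fun x hx y hy => by
    have := sq_mul (c1 _ (cm y hy x hx) x hx) (c1 _ (cm y hy x hx) y hy)
    simp only [pow_two] at this
    rw [this, za _ (mul_mem (hsq x hx) (hsq y hy)) _ (cm y hy x hx), za _ (hsq x hx) _ (hsq y hy)]
  have := H3.card_le_of_aniso ((hD.isPGroup).to_quotient (Z.subgroupOf D)) (fun v => z (s v * s v))
    (fun v w => z ⁅s w, s v⁆) (fun v w => by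
      obtain ⟨a, ha, e1⟩ := hm v w
      have h1 := D.mul_mem (hs v) (hs w)
      rw [e1, hq _ h1 _ (hl ha), (hZ a (hl ha)).1 ha, one_cm (c1 a ha _ h1), (zk 1 (one_mem _)).2 rfl,
        hq _ (hs v) _ (hs w), add_zero, add_zero]) (fun v w u => by
      obtain ⟨a, ha, e1⟩ := hm v w
      rw [e1, cm_cr (c1 a ha _ (hs u)), cmr (c1 _ (cm _ (hs u) _ (hs w)) _ (hs v)),
        za _ (cm _ (hs u) _ (hs v)) _ (cm _ (hs u) _ (hs w))]) (fun v => by
      rw [zk _ (hsq _ (hs v)), ← hZ _ (hs v), ← QuotientGroup.out_eq' v, QuotientGroup.eq_one_iff,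
        mem_subgroupOf, QuotientGroup.out_eq'])
  exact hF ▸ this

omit [Finite G] in
theorem fib_le (hn : B ≤ N(D)) (hy : y ∈ B) [Finite G] :
    Set.ncard {d | d ∈ D ∧ d * d = x} ≤ Set.ncard {d | d ∈ D ∧ d * d = y * x * y⁻¹} :=
  Set.ncard_le_ncard_of_injOn (fun d => y * d * y⁻¹) (fun d hd => ⟨conj_mem hn hy hd.1, by rw [← hd.2]; group⟩)
    fun a _ b _ e => by simpa using e

theorem amb (hP : PiGrp {2} P) (hl : Z ≤ P) (hZ : ∀ x ∈ P, x ∈ Z ↔ x * x = 1) (hc : Z ≤ C(P)) (hY : Y ≤ N(P))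
    (htr : ∀ a ∈ Z, ∀ b ∈ Z, a ≠ 1 → b ≠ 1 → ∃ y ∈ Y, y * a * y⁻¹ = b) (hr : r.Prime) (hd : r ∣ Nat.card Z - 1)
    (hx : x ∈ Y) (h1 : x ^ r = 1) (hf : x ∈ C(Z)) : x ∈ C(P) := by
  classical
  by_contra nc
  have inv : ∀ D ≤ P, D ≠ ⊥ → ∃ a ∈ D, a ∈ Z ∧ a ≠ 1 := fun D l e => by
    obtain ⟨a, ha, o⟩ := cauchy Nat.prime_two ((hP.of_le l).dvd_card e)
    exact ⟨a, ha, (hZ a (l ha)).2 (by rw [← pow_two, ← o, pow_orderOf_eq_one]), fun c => by simp [c] at o⟩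
  obtain ⟨a0, -, ha0, a01⟩ := inv P le_rfl fun e => nc (by simp [e])
  have z1 := ne_bot_of_mem ha0 a01
  obtain ⟨n, hn⟩ := (hP.of_le hl).card_eq_pow
  have n1 : n ≠ 0 := fun c => (one_lt_card z1).ne' (by rw [hn, c, pow_zero])
  have r2 : r ≠ 2 := fun c => by
    obtain ⟨k, rfl⟩ := Nat.exists_eq_succ_of_ne_zero n1
    rw [hn, c, pow_succ] at hd
    have : 1 ≤ 2 ^ k := Nat.one_le_two_pow
    omega
  have yz : Y ≤ N(Z) := norm_iff.2 fun y hy a ha => (hZ _ (conj_mem hY hy (hl ha))).2 (by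
    calc y * a * y⁻¹ * (y * a * y⁻¹) = y * (a * a) * y⁻¹ := by group
      _ = 1 := by rw [(hZ a (hl ha)).1 ha]; group)
  obtain ⟨R, hR, xR⟩ := exists_sylow_le hr (piElt_of_pow_eq_one hr h1).zpowers
    (zpowers_le.2 (mem_inf.2 ⟨hx, hf⟩) : zpowers x ≤ Y ⊓ C(Z))
  have rz : R ≤ C(Z) := hR.le.trans inf_le_right
  have tr : ∀ a ∈ Z, ∀ b ∈ Z, a ≠ 1 → b ≠ 1 → ∃ y ∈ Y ⊓ N(R), y * a * y⁻¹ = b := fun a ha b hb a1 b1 => by
    obtain ⟨y, hy, e⟩ := htr a ha b hb a1 b1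
    obtain ⟨k, hk, m, hm, rfl⟩ := frattini_elt hr hR ((nml_cent yz).norm hy)
    have my : m ∈ Y := by simpa using Y.mul_mem (Y.inv_mem hk.1) hy
    refine ⟨m, ⟨my, hm⟩, ?_⟩
    rw [← e, show k * m * a * (k * m)⁻¹ = k * (m * a * m⁻¹) * k⁻¹ by group,
      conj_eq_self_of_C1 (C_le_C1 (conj_mem yz my ha) hk.2)]
  obtain ⟨D, dP, hD⟩ := exists_minAct hP (inf_le_left.trans hY : Y ⊓ N(R) ≤ N(P))
    (le_inf (hR.le.trans inf_le_left) H18.le_N) inf_le_right (PiNat.p'_of_ne hR.pi r2)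
    fun c => nc (cent_symm c (xR (mem_zpowers x)))
  have sq : ∀ x ∈ D, x ^ 2 ∈ Φ(D) := fun x hx => hD.pi.pow_mem_phi Nat.prime_two hx
  have dz : ⁅D, D⁆ ≤ Z := commutator_le.2 fun x hx y hy => (hZ _ (dP (der_le (commutator_mem_commutator hx hy)))).2 (by
    rw [← pow_two, ← cpl (C_le_C1 hx (hD.der_cent (commutator_mem_commutator hx hy))) 2]
    exact one_cm (C_le_C1 hy (hD.phi_cent (sq x hx))))
  have sz : ∀ x ∈ D, x * x ∈ Z := fun x hx => dz (hD.phi_eq_der ▸ pow_two x ▸ sq x hx)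
  have zD : Z ≤ D := fun b hb => by
    obtain ⟨a, ha, az, a1⟩ := inv D dP hD.ne_bot
    by_cases b1 : b = 1
    · exact b1 ▸ one_mem _
    obtain ⟨y, hy, rfl⟩ := tr a az b hb a1 b1
    exact conj_mem hD.norm hy ha
  have bd := bound hD.pi zD (cent_mono hc le_rfl dP) sz (fun x hx => hZ x (dP hx)) z1
  obtain ⟨u, hu⟩ := (hD.pi.relIndex (A := Z)).eq_pow relIndex_ne_zero
  have u1 : u ≠ 0 := fun c => hD.nt ((relIndex_eq_one_iff.1 (by rw [hu, c, pow_zero])).trans (cent_symm rz))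
  rw [hu, hn, ← pow_mul] at bd
  obtain ⟨t, ht, rt⟩ := cnt (T := {d | d ∈ D ∧ d * d = a0}) (W := ⊥) hr hR.pi (by simp) (by simp)
    (fun a ha d hd => ⟨conj_mem (hD.le.trans hD.norm) ha hd.1, by
      rw [show a * d * a⁻¹ * (a * d * a⁻¹) = a * (d * d) * a⁻¹ by group, hd.2,
        conj_eq_self_of_C1 (C_le_C1 ha0 (rz ha))]⟩)
    (fun d hd w hw => by rwa [mem_bot.1 hw, mul_one]) fun d hd => by
      by_contra! c
      have : d ∈ Z := dz (hD.cent_eq_der ▸ mem_inf.2 ⟨hd.1, mem_C.2 fun a ha =>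
        (mem_C1.1 (cm_one (mem_bot.1 (c a ha)))).symm⟩)
      exact a01 (hd.2.symm.trans ((hZ d (hl this)).1 this))
  rw [card_bot, one_mul] at ht
  refine nt (s := t) hr n1 u1 (by have := (Nat.pow_le_pow_iff_right (by norm_num)).1 bd; omega) ?_ (hn ▸ hd) rt
  rw [← hu, ← hn, H18.card_mul_relIndex zD]
  letI := Fintype.ofFinite G
  have cf : ∀ H : Subgroup G, Nat.card H = (Finset.univ.filter (· ∈ H)).card := fun H => by
    rw [Nat.card_eq_fintype_card, Fintype.card_subtype]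
  have ff : ∀ v, ((Finset.univ.filter (· ∈ D)).filter fun d => d * d = v).card = Set.ncard {d | d ∈ D ∧ d * d = v} :=
    fun v => by rw [Set.ncard_eq_toFinset_card']; congr 1; ext d; simp
  rw [cf D, Finset.card_eq_sum_card_fiberwise (f := fun d => d * d) (t := Finset.univ.filter (· ∈ Z))
    (fun d hd => by simpa using sz d (by simpa using hd)), ← Finset.add_sum_erase _ _ (a := 1) (by simp),
    Finset.sum_congr rfl (g := fun _ => t), Finset.sum_const, Finset.card_erase_of_mem (by simp), ← cf, smul_eq_mul]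
  · congr 1
    rw [cf Z]; congr 1; ext d
    simp only [Finset.mem_filter, Finset.mem_univ, true_and]
    exact ⟨fun c => (hZ d (dP c.1)).2 c.2, fun c => ⟨zD c, (hZ d (hl c)).1 c⟩⟩
  · intro v hv
    obtain ⟨v1, vz⟩ : v ≠ 1 ∧ v ∈ Z := by simpa using hv
    obtain ⟨y, hy, e⟩ := tr a0 ha0 v vz a01 v1
    obtain ⟨y', hy', e'⟩ := tr v vz a0 ha0 v1 a01
    rw [ff, ← ht]
    exact le_antisymm (e' ▸ fib_le hD.norm hy') (e ▸ fib_le hD.norm hy)

theorem ker_cop {P : Type*} [Group P] [Finite P] (hP : IsPGroup 2 P) {Z : Subgroup P} (hZ : ∀ x, x ∈ Z ↔ x * x = 1)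
    (hc : ∀ a ∈ Z, ∀ x, x * a = a * x) (Y : Subgroup (MulAut P))
    (htr : ∀ x y : P, x ≠ 1 → x * x = 1 → y ≠ 1 → y * y = 1 → ∃ a ∈ Y, a x = y) {r : ℕ} (hr : r.Prime)
    (hd : r ∣ Nat.card Z - 1) (η : MulAut P) (hη : η ∈ Y) (h1 : η ^ r = 1) (hfix : ∀ a ∈ Z, η a = a) : η = 1 := by
  haveI : Finite (MulAut P) := Finite.of_injective (fun σ : MulAut P => (σ : P → P)) DFunLike.coe_injective
  have := amb (G := P ⋊[MonoidHom.id _] MulAut P) (P := hl _ ⊤) (Z := hl _ Z) (Y := H1.hr _ Y) (x := .inr η)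
    (piGrp_hl.2 (piGrp_of_isPGroup Nat.prime_two (hP.to_subgroup ⊤))) (hl_le_hl.2 le_top) ?_
    (hl_cent_iff.2 fun a ha => mem_C.2 fun x _ => hc a ha x) hr_norm_top ?_ hr (by rwa [card_hl])
    (inr_mem_hr.2 hη) (by rw [← map_pow, h1, map_one]) ?_
  · ext x
    exact inl_mem_C1.1 (le_C1_iff.2 this (inl_mem_hl.2 (mem_top x)))
  · rintro _ ⟨x, -, rfl⟩
    rw [inl_mem_hl, hZ, ← map_mul, ← (SemidirectProduct.inl (φ := MonoidHom.id (MulAut P))).map_one,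
      SemidirectProduct.inl_inj]
  · rintro _ ⟨a, ha, rfl⟩ _ ⟨b, hb, rfl⟩ a1 b1
    obtain ⟨y, hy, e⟩ := htr a b (fun c => a1 (by simp [c])) ((hZ a).1 ha) (fun c => b1 (by simp [c])) ((hZ b).1 hb)
    exact ⟨_, inr_mem_hr.2 hy, inr_conj_inl.trans (congrArg _ e)⟩
  · refine le_C1_iff.1 ?_
    rintro _ ⟨a, ha, rfl⟩
    exact inl_mem_C1.2 (hfix a ha)

end H6.Shk
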