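import Cfsg.Agent.H8.PDeg
import Cfsg.Agent.H6.Clifford
import Cfsg.Prelude.Def_Transfer
/-! Characters of extraspecial groups (`H6.xs_center`, `H6.xs_deg`). -/
set_option autoImplicit false
open H5 Cfsg
namespace H6

variable {P : Type*} [Group P] [Finite P] {p n : ℕ} [hp : Fact p.Prime] {χ : P → ℂ}

theorem xs_center (hP : IsExtraspecial p P) (hχ : IsIrrCharacter P χ) (h1 : χ 1 ≠ 1) :
    charCenter χ = Subgroup.center P := by
  haveI := hχ.isCharacter.normal_charKer
  refine hχ.charCenter_eq_center (by_contra fun k => h1 (hχ.commutator_le_charKer_iff.1 ?_))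
  obtain ⟨z, hz, hz', o⟩ := H8.exists_central_of_normal hP.1.1 k
  rw [hP.1.2.2, ← Subgroup.eq_of_le_of_card_ge (Subgroup.zpowers_le.2 hz') (by rw [hP.2, Nat.card_zpowers, o])]
  exact Subgroup.zpowers_le.2 hz

theorem xs_index (hP : IsExtraspecial p P) (hcard : Nat.card P = p ^ (2 * n + 1)) :
    (Subgroup.center P).index = (p ^ n) ^ 2 := by
  have := (Subgroup.center P).card_mul_index
  rw [hP.2, hcard, pow_succ'] at this
  rw [Nat.eq_of_mul_eq_mul_left hp.out.pos this, ← pow_mul, mul_comm]

theorem xs_deg (hP : IsExtraspecial p P) (hcard : Nat.card P = p ^ (2 * n + 1)) (hχ : IsIrrCharacter P χ)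
    (h1 : χ 1 ≠ 1) : charDegree χ = p ^ n := by
  have := H8.deg_sq_of_comm hχ (by rw [xs_center hP hχ h1, hP.1.2.2])
  rw [xs_center hP hχ h1, xs_index hP hcard] at this
  exact Nat.pow_left_injective two_ne_zero this

theorem xs_ne (hP : IsExtraspecial p P) (hcard : Nat.card P = p ^ (2 * n + 1)) : p ^ n ≠ 1 := fun k => by
  have h := xs_index hP hcard
  rw [k, one_pow, Subgroup.index_eq_one] at h
  have : commutator P = ⊥ := by
    rw [commutator_eq_bot_iff_center_eq_top]; exact h
  have h2 := hP.2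
  rw [← hP.1.2.2, this, Subgroup.card_bot] at h2
  exact hp.out.one_lt.ne h2

end H6
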